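import Cfsg.Agent.Lib.SameOrder.Three
import Cfsg.Agent.Lib.Solvable.Hall
import Mathlib

/-!
# Odd groups with exactly three same-order counts (S4004)

Counting for `|π(G)| ≤ 2`, and two product computations in a normal abelian subgroup to produce a
Frobenius complement of prime order.
-/

set_option autoImplicit false

universe u

namespace Cfsg.Agent.Lib.SameOrder

open Cfsg.Agent.S3995
open scoped Pointwise

section Products

variable {G : Type*} [Group G] {A : Type*} [CommGroup A] (φ : G →* MulAut A)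

include φ in
lemma norm_shift {u : G} {n : ℕ} (hu : u ^ n = 1) (w : A) :
    φ u (∏ i ∈ Finset.range n, φ (u ^ i) w) = ∏ i ∈ Finset.range n, φ (u ^ i) w := by
  rw [map_prod]
  have h0 : ∀ i, φ u (φ (u ^ i) w) = φ (u ^ (i + 1)) w := by
    intro i
    rw [pow_succ', map_mul]
    rfl
  simp_rw [h0]
  have h1 := Finset.prod_range_succ (fun i => φ (u ^ i) w) n
  have h2 := Finset.prod_range_succ' (fun i => φ (u ^ i) w) n
  rw [h1] at h2
  simp only [hu, map_one, pow_zero] at h2
  exact (mul_right_cancel h2).symm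

include φ in
lemma norm_eq_one {u : G} {n : ℕ} (hu : u ^ n = 1) (hfix : ∀ w : A, φ u w = w → w = 1) (w : A) :
    ∏ i ∈ Finset.range n, φ (u ^ i) w = 1 :=
  hfix _ (norm_shift φ hu w)

/-- rank two elementary group: `w ^ r = 1` if all nonidentity elements are fixed point free -/
lemma rank_two {g z : G} (hgz : Commute g z) {r : ℕ} (hr : 0 < r) (hg : g ^ r = 1) (hz : z ^ r = 1)
    (hfixg : ∀ i, i < r → ∀ w : A, φ (g * z ^ i) w = w → w = 1)
    (hfixz : ∀ j, 0 < j → j < r → ∀ w : A, φ (z ^ j) w = w → w = 1) (w : A) : w ^ r = 1 := by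
  have hpow : ∀ i, (g * z ^ i) ^ r = 1 := by
    intro i
    rw [(hgz.pow_right i).mul_pow, hg, ← pow_mul, mul_comm, pow_mul, hz, one_pow, one_mul]
  have hD : ∏ i ∈ Finset.range r, ∏ j ∈ Finset.range r, φ ((g * z ^ i) ^ j) w = 1 :=
    Finset.prod_eq_one (fun i hi =>
      norm_eq_one φ (hpow i) (hfixg i (Finset.mem_range.mp hi)) w)
  rw [Finset.prod_comm] at hD
  have h2 : ∀ i j, φ ((g * z ^ i) ^ j) w = φ (g ^ j) (φ ((z ^ j) ^ i) w) := by
    intro i j
    rw [(hgz.pow_right i).mul_pow, ← pow_mul, mul_comm i j, pow_mul, map_mul]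
    rfl
  simp_rw [h2, ← map_prod] at hD
  rw [Finset.prod_eq_single 0] at hD
  · simpa using hD
  · intro j hj hj0
    have hjr := Finset.mem_range.mp hj
    have hz' : (z ^ j) ^ r = 1 := by
      rw [← pow_mul, mul_comm, pow_mul, hz, one_pow]
    rw [norm_eq_one φ hz' (hfixz j (Nat.pos_of_ne_zero hj0) hjr) w, map_one]
  · intro h0
    exact absurd (Finset.mem_range.mpr hr) h0

/-- the Frobenius group computation -/
lemma trick (S : Subgroup G) [Fintype S] {x₀ : G} {m : ℕ} (hm : 0 < m)
    (hnorm : ∀ w : A, ∏ s : S, φ (s : G) w = 1)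
    (hb : ∀ s ∈ S, ∀ w : A, ∏ j ∈ Finset.range m, φ (s * x₀ ^ j * s⁻¹) w = 1)
    (hc1 : ∀ j, 0 < j → j < m → ∀ s ∈ S, s * x₀ ^ j * s⁻¹ * (x₀ ^ j)⁻¹ ∈ S)
    (hc2 : ∀ j, 0 < j → j < m → ∀ s₁ ∈ S, ∀ s₂ ∈ S, s₁ * x₀ ^ j * s₁⁻¹ = s₂ * x₀ ^ j * s₂⁻¹ → s₁ = s₂)
    (w : A) : w ^ Fintype.card S = 1 := by
  have hD : ∏ s : S, ∏ j ∈ Finset.range m, φ ((s : G) * x₀ ^ j * (s : G)⁻¹) w = 1 :=
    Finset.prod_eq_one (fun s _ => hb s s.2 w)
  rw [Finset.prod_comm, Finset.prod_eq_single 0] at hD
  · simpa using hD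
  · intro j hj hj0
    have hjm := Finset.mem_range.mp hj
    have hj' := Nat.pos_of_ne_zero hj0
    let μ : S → S := fun s => ⟨(s : G) * x₀ ^ j * (s : G)⁻¹ * (x₀ ^ j)⁻¹, hc1 j hj' hjm s s.2⟩
    have hμ : Function.Injective μ := by
      intro s₁ s₂ h
      have h' : (s₁ : G) * x₀ ^ j * (s₁ : G)⁻¹ * (x₀ ^ j)⁻¹ = (s₂ : G) * x₀ ^ j * (s₂ : G)⁻¹ * (x₀ ^ j)⁻¹ :=
        congrArg Subtype.val h
      exact Subtype.ext (hc2 j hj' hjm s₁ s₁.2 s₂ s₂.2 (mul_right_cancel h'))
    have hμb : Function.Bijective μ := Finite.injective_iff_bijective.mp hμ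
    have h1 : ∀ s : S, φ ((s : G) * x₀ ^ j * (s : G)⁻¹) w = φ (μ s : G) (φ (x₀ ^ j) w) := by
      intro s
      have : ((μ s : S) : G) * x₀ ^ j = (s : G) * x₀ ^ j * (s : G)⁻¹ := by
        simp [μ]
      rw [← this, map_mul]
      rfl
    simp_rw [h1]
    have h2 := hμb.prod_comp (fun s : S => φ (s : G) (φ (x₀ ^ j) w))
    rw [h2]
    exact hnorm _
  · intro h0
    exact absurd (Finset.mem_range.mpr hm) h0

end Products

section Counting

variable {G : Type*} [Group G] [Finite G]

lemma exists_commute_of_not_dvd {p : ℕ} (hp : p.Prime) {v : G} (hv : v ^ p = 1) (P : G → Prop)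
    (hP : ∀ g h : G, P g → P (h * g * h⁻¹)) (hn : ¬ p ∣ Nat.card {g // P g}) :
    ∃ g, P g ∧ v * g = g * v := by
  classical
  haveI := Fact.mk hp
  haveI := Fintype.ofFinite {g // P g}
  let σ : Equiv.Perm {g // P g} :=
    { toFun := fun g => ⟨v * g.1 * v⁻¹, hP g.1 v g.2⟩
      invFun := fun g => ⟨v⁻¹ * g.1 * v⁻¹⁻¹, hP g.1 v⁻¹ g.2⟩
      left_inv := fun g => Subtype.ext (by simp [mul_assoc])
      right_inv := fun g => Subtype.ext (by simp [mul_assoc]) }
  have hσn : ∀ (n : ℕ) (g : {g // P g}), ((σ ^ n) g).1 = v ^ n * g.1 * (v ^ n)⁻¹ := by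
    intro n
    induction n with
    | zero => intro g; simp
    | succ n ih =>
      intro g
      rw [pow_succ', Equiv.Perm.mul_apply]
      change v * ((σ ^ n) g).1 * v⁻¹ = _
      rw [ih, pow_succ']
      group
  have hσ : σ ^ p ^ 1 = 1 := by
    ext g
    rw [pow_one, hσn, hv]
    simp
  obtain ⟨g, hg⟩ := Equiv.Perm.exists_fixed_point_of_prime (p := p) (n := 1)
    (by rwa [← Nat.card_eq_fintype_card]) hσ
  refine ⟨g.1, g.2, ?_⟩
  have h := congrArg Subtype.val hg
  change v * g.1 * v⁻¹ = g.1 at h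
  calc v * g.1 = (v * g.1 * v⁻¹) * v := by group
    _ = g.1 * v := by rw [h]

lemma eq_of_pow_eq {p r : ℕ} (hp : 1 < p) (hpr : Nat.Coprime r p) {v v' : G} (hv : v ^ p = 1) (hv' : v' ^ p = 1)
    (h : v ^ r = v' ^ r) : v = v' := by
  obtain ⟨m, hm⟩ := Nat.exists_mul_mod_eq_one_of_coprime hpr hp
  have h1 : ∀ y : G, y ^ p = 1 → (y ^ r) ^ m = y := by
    intro y hy
    rw [← pow_mul, pow_eq_pow_mod _ hy, hm.2, pow_one]
  rw [← h1 v hv, ← h1 v' hv', h]

lemma two_mul_le {p r : ℕ} (hp : p.Prime) (hr : r.Prime) (hpr : p ≠ r) (hr3 : 3 ≤ r)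
    (h : ∀ v : G, orderOf v = p → ∃ u : G, orderOf u = r ∧ v * u = u * v) :
    2 * c G p ≤ c G (p * r) := by
  classical
  have hcop : Nat.Coprime p r := (Nat.coprime_primes hp hr).mpr hpr
  choose! U hU1 hU2 using h
  let Φ : Fin 2 × {v : G // orderOf v = p} → {g : G // orderOf g = p * r} := fun x =>
    ⟨x.2.1 * U x.2.1 ^ (x.1.1 + 1), by
      have hi := x.1.2
      have h1 : orderOf (U x.2.1 ^ (x.1.1 + 1)) = r := by
        rw [Nat.Coprime.orderOf_pow, hU1 _ x.2.2]
        rw [hU1 _ x.2.2]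
        apply (Nat.Prime.coprime_iff_not_dvd hr).mpr
        intro hd
        have := Nat.le_of_dvd (by omega) hd
        omega
      have hcomm : Commute x.2.1 (U x.2.1 ^ (x.1.1 + 1)) :=
        Commute.pow_right (hU2 _ x.2.2) _
      rw [hcomm.orderOf_mul_eq_mul_orderOf_of_coprime (by rw [x.2.2, h1]; exact hcop), x.2.2, h1]⟩
  have hΦ : Function.Injective Φ := by
    rintro ⟨i, v, hv⟩ ⟨i', v', hv'⟩ hh
    have h1 : v * U v ^ (i.1 + 1) = v' * U v' ^ (i'.1 + 1) := congrArg Subtype.val hh
    have hpow : ∀ (y : G) (k : ℕ), orderOf y = p → (y * U y ^ k) ^ r = y ^ r := by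
      intro y k hy
      have hc : Commute y (U y ^ k) := Commute.pow_right (hU2 _ hy) _
      rw [hc.mul_pow, ← pow_mul, mul_comm k r, pow_mul, ← hU1 y hy, pow_orderOf_eq_one, one_pow, mul_one]
    have h2 : v ^ r = v' ^ r := by
      rw [← hpow v _ hv, ← hpow v' _ hv', h1]
    have hvv : v = v' := eq_of_pow_eq hp.one_lt hcop.symm (by rw [← hv]; exact pow_orderOf_eq_one v)
      (by rw [← hv']; exact pow_orderOf_eq_one v') h2
    subst hvv
    have h3 : U v ^ (i.1 + 1) = U v ^ (i'.1 + 1) := mul_left_cancel h1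
    have hii : i.1 + 1 = i'.1 + 1 := by
      apply pow_injOn_Iio_orderOf _ _ h3
      · rw [Set.mem_Iio, hU1 _ hv]; have := i.2; omega
      · rw [Set.mem_Iio, hU1 _ hv]; have := i'.2; omega
    have : i = i' := Fin.ext (by omega)
    subst this
    rfl
  have h3 := Nat.card_le_card_of_injective Φ hΦ
  rw [Nat.card_prod, Nat.card_fin] at h3
  exact h3

lemma order_conj_invariant (m : ℕ) (g h : G) (hg : orderOf g = m) : orderOf (h * g * h⁻¹) = m := by
  rw [← hg]
  have := orderOf_injective (MulAut.conj h).toMonoidHom (MulAut.conj h).injective g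
  simpa using this

lemma c_dvd_of_sq {r : ℕ} (hr : r.Prime) : r ∣ c G (r ^ 2) := by
  have h1 := totient_dvd_c (G := G) (r ^ 2)
  rw [Nat.totient_prime_pow hr (by norm_num)] at h1
  have h2 : r ∣ r ^ (2 - 1) * (r - 1) := by
    simp
  exact h2.trans h1

/-- orders dividing `s ^ k` when no elements of order `s ^ 2` exist -/
lemma hD_pow_of_no_sq {s : ℕ} (hs : s.Prime) (h0 : c G (s ^ 2) = 0) {k : ℕ} (hk : k ≠ 0) (g : G) :
    g ^ s ^ k = 1 ↔ orderOf g ∈ ({1, s} : Finset ℕ) := by
  simp only [Finset.mem_insert, Finset.mem_singleton]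
  constructor
  · intro h
    have h1 := orderOf_dvd_of_pow_eq_one h
    obtain ⟨i, -, hi⟩ := (Nat.dvd_prime_pow hs).mp h1
    by_cases hi2 : 2 ≤ i
    · exfalso
      have hne : c G (s ^ 2) ≠ 0 := by
        refine (c_ne_zero_iff _).mpr ⟨g ^ (s ^ (i - 2)), ?_⟩
        have hd : s ^ (i - 2) ∣ orderOf g := by
          rw [hi]
          exact pow_dvd_pow s (by omega)
        rw [orderOf_pow_of_dvd (pow_ne_zero _ hs.ne_zero) hd, hi]
        rw [Nat.pow_div (by omega) hs.pos]
        congr 1
        omega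
      exact hne h0
    · have : i = 0 ∨ i = 1 := by omega
      rcases this with rfl | rfl
      · left; simpa using hi
      · right; simpa using hi
  · rintro (h | h)
    · rw [orderOf_eq_one_iff] at h
      simp [h]
    · rw [← orderOf_dvd_iff_pow_eq_one, h]
      exact dvd_pow_self s hk

lemma F_pow {s : ℕ} (hs : s.Prime) (h0 : c G (s ^ 2) = 0) {k : ℕ} (hd : s ^ k ∣ Nat.card G) :
    s ^ k ∣ 1 + c G s := by
  by_cases hk : k = 0
  · subst hk; simp
  have L1 := frob _ hd _ (hD_pow_of_no_sq (G := G) hs h0 hk)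
  rwa [Finset.sum_pair hs.one_lt.ne, c_one] at L1

end Counting

section Main

variable {G : Type*} [Group G] [Finite G]

lemma three_le_of_odd {p : ℕ} (hp : p.Prime) (hodd : Odd (Nat.card G)) (hd : p ∣ Nat.card G) : 3 ≤ p := by
  have h2 := hp.two_le
  by_contra h3
  have : p = 2 := by omega
  subst this
  exact (Nat.not_even_iff_odd.mpr hodd) (even_iff_two_dvd.mpr hd)

/-- **Distinct primes have distinct counts.** -/
theorem same_class_false (h3 : Three G) (hodd : Odd (Nat.card G)) {p q : ℕ} (hp : p.Prime) (hq : q.Prime)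
    (hpq : p ≠ q) (hpd : p ∣ Nat.card G) (hqd : q ∣ Nat.card G) (hc : c G p = c G q) : False := by
  have hp3 := three_le_of_odd hp hodd hpd
  have hq3 := three_le_of_odd hq hodd hqd
  set x := c G p with hx
  have hx0 : x ≠ 0 := c_prime hp hpd
  have hx1 : x ≠ 1 := c_ne_one hp3
  obtain ⟨y, hy1, hyx, hv⟩ := exists_vals h3 (m₀ := p) hx.symm hx0 hx1
  have hv3 : ∀ m, 3 ≤ m → c G m = 0 ∨ c G m = x ∨ c G m = y := by
    intro m hm
    rcases hv m with h | h | h | h
    · exact Or.inl h
    · exact absurd h (c_ne_one hm)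
    · exact Or.inr (Or.inl h)
    · exact Or.inr (Or.inr h)
  -- same-class facts
  have factA : ∀ s t : ℕ, s.Prime → t.Prime → 3 ≤ s → 3 ≤ t → s ≠ t → s ∣ Nat.card G → t ∣ Nat.card G →
      c G s = x → c G t = x → s ∣ x + 1 ∧ s ∣ x + y := by
    intro s t hs ht hs3 ht3 hst hsd htd hcs hct
    have hcop : Nat.Coprime s t := (Nat.coprime_primes hs ht).mpr hst
    have Fs := F_p (G := G) hs hsd
    rw [hcs] at Fs
    have Fs' : s ∣ x + 1 := by rwa [add_comm] at Fs
    refine ⟨Fs', ?_⟩
    have F := (dvd_mul_right s t).trans (F_pq (G := G) hs ht hst (hcop.mul_dvd_of_dvd_of_dvd hsd htd))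
    rw [hcs, hct] at F
    have hm : s * t ≥ 3 * 3 := Nat.mul_le_mul hs3 ht3
    rcases hv3 (s * t) (by omega) with h | h | h
    · rw [h] at F
      exact absurd (aux1 Fs' (by rwa [show 1 + 2 * x = 1 + x + x + 0 by ring])) (odd_not_dvd_one hs3)
    · rw [h] at F
      exact absurd (aux2 Fs' (by rwa [show 1 + 3 * x = 1 + x + x + x by ring])) (odd_not_dvd_two hs3)
    · rw [h, show 1 + x + x + y = (x + 1) + (x + y) by ring] at F
      exact (Nat.dvd_add_right Fs').mp F
  have notdvd : ∀ s : ℕ, s.Prime → 3 ≤ s → s ∣ x + 1 → s ∣ x + y → ¬ s ∣ y := by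
    intro s hs hs3 h1 h2 h3
    have h4 : s ∣ x := (Nat.dvd_add_left h3).mp h2
    exact odd_not_dvd_one hs3 ((Nat.dvd_add_right h4).mp h1)
  have factB : ∀ s : ℕ, s.Prime → 3 ≤ s → s ∣ x + 1 → s ∣ x + y → c G (s ^ 2) = 0 := by
    intro s hs hs3 h1 h2
    have hd := c_dvd_of_sq (G := G) hs
    have hm : s ^ 2 ≥ 3 := by nlinarith
    rcases hv3 (s ^ 2) hm with h | h | h
    · exact h
    · exfalso
      rw [h] at hd
      exact odd_not_dvd_one hs3 ((Nat.dvd_add_right hd).mp h1)
    · exfalso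
      rw [h] at hd
      exact notdvd s hs hs3 h1 h2 hd
  obtain ⟨hp1, hp2⟩ := factA p q hp hq hp3 hq3 hpq hpd hqd rfl hc.symm
  have hpy := notdvd p hp hp3 hp1 hp2
  -- every prime has count `x`
  have hall : ∀ r : ℕ, r.Prime → r ∣ Nat.card G → c G r = x := by
    intro r hr hrd
    have hr3 := three_le_of_odd hr hodd hrd
    rcases hv3 r hr3 with h | h | h
    · exact absurd h (c_prime hr hrd)
    · exact h
    · exfalso
      have hpr : p ≠ r := by
        rintro rfl
        exact hyx h.symm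
      have hcop : Nat.Coprime p r := (Nat.coprime_primes hp hr).mpr hpr
      have hex : ∀ v : G, orderOf v = p → ∃ u : G, orderOf u = r ∧ v * u = u * v := by
        intro v hv'
        have hvp : v ^ p = 1 := by rw [← hv']; exact pow_orderOf_eq_one v
        exact exists_commute_of_not_dvd hp hvp (fun g => orderOf g = r)
          (fun g h hg => order_conj_invariant r g h hg) (by
            change ¬ p ∣ c G r
            rw [h]
            exact hpy)
      have h2le := two_mul_le hp hr hpr hr3 hex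
      have hne : c G (p * r) ≠ 0 := by
        intro h0
        rw [h0, ← hx] at h2le
        omega
      have F := (dvd_mul_right p r).trans (F_pq (G := G) hp hr hpr (hcop.mul_dvd_of_dvd_of_dvd hpd hrd))
      rw [h, ← hx] at F
      have hm : p * r ≥ 3 * 3 := Nat.mul_le_mul hp3 hr3
      rcases hv3 (p * r) (by omega) with h' | h' | h'
      · exact hne h'
      · rw [h', ← hx] at h2le
        omega
      · rw [h', show 1 + x + y + y = (x + 1) + (y + y) by ring] at F
        exact hpy (odd_not_dvd_of_two hp3 hp ((Nat.dvd_add_right hp1).mp F))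
  -- `|G|` divides `1 + x`
  have hdvd : Nat.card G ∣ 1 + x := by
    rw [Nat.dvd_iff_prime_pow_dvd_dvd]
    intro s k hs hsk
    by_cases hk : k = 0
    · subst hk; simp
    have hsd : s ∣ Nat.card G := (dvd_pow_self s hk).trans hsk
    have hs3 := three_le_of_odd hs hodd hsd
    have hcs := hall s hs hsd
    have hno : c G (s ^ 2) = 0 := by
      by_cases hsp : s = p
      · subst hsp
        exact factB s hs hs3 hp1 hp2
      · obtain ⟨h1, h2⟩ := factA s p hs hp hs3 hp3 hsp hsd hpd hcs rfl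
        exact factB s hs hs3 h1 h2
    have := F_pow hs hno hsk
    rwa [hcs] at this
  have hle : Nat.card G ≤ 1 + x := Nat.le_of_dvd (by omega) hdvd
  -- lower bound
  have hcount : Nat.card {g : G // g ^ (p * q) = 1} = ∑ d ∈ ({1, p, q, p * q} : Finset ℕ), c G d :=
    L_eq _ _ (hD_pq (G := G) hp hq)
  have h1p := hp.one_lt
  have h1q := hq.one_lt
  have hm1 : p * q ≥ 2 * q := Nat.mul_le_mul_right q (by omega)
  have hm2 : p * q ≥ p * 2 := Nat.mul_le_mul_left p (by omega)
  rw [Finset.sum_insert (by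
      simp only [Finset.mem_insert, Finset.mem_singleton]
      omega),
    Finset.sum_insert (by
      simp only [Finset.mem_insert, Finset.mem_singleton]
      omega),
    Finset.sum_pair (by omega), c_one, ← hx, ← hc] at hcount
  have hle2 : Nat.card {g : G // g ^ (p * q) = 1} ≤ Nat.card G :=
    Nat.card_le_card_of_injective _ Subtype.val_injective
  omega

/-- **At most two primes.** -/
theorem primeFactors_card_le (h3 : Three G) (hodd : Odd (Nat.card G)) :
    (Nat.card G).primeFactors.card ≤ 2 := by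
  by_contra hlt
  push_neg at hlt
  obtain ⟨p, hp, q, hq, r, hr, hpq, hpr, hqr⟩ := Finset.two_lt_card.mp hlt
  have hp' := Nat.mem_primeFactors.mp hp
  have hq' := Nat.mem_primeFactors.mp hq
  have hr' := Nat.mem_primeFactors.mp hr
  obtain ⟨a, b, -, -, -, -, -, hv, -, -⟩ := ncard_vals_pair h3
  have hvp : ∀ s : ℕ, s.Prime → s ∣ Nat.card G → c G s = a ∨ c G s = b := by
    intro s hs hsd
    have hs3 := three_le_of_odd hs hodd hsd
    rcases hv s with h | h | h | h
    · exact absurd h (c_prime hs hsd)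
    · exact absurd h (c_ne_one hs3)
    · exact Or.inl h
    · exact Or.inr h
  have hsame : ∀ s t : ℕ, s.Prime → t.Prime → s ≠ t → s ∣ Nat.card G → t ∣ Nat.card G → c G s ≠ c G t :=
    fun s t hs ht hst hsd htd hc => same_class_false h3 hodd hs ht hst hsd htd hc
  have h1 := hsame p q hp'.1 hq'.1 hpq hp'.2.1 hq'.2.1
  have h2 := hsame p r hp'.1 hr'.1 hpr hp'.2.1 hr'.2.1
  have h4 := hsame q r hq'.1 hr'.1 hqr hq'.2.1 hr'.2.1
  rcases hvp p hp'.1 hp'.2.1 with a1 | a1 <;> rcases hvp q hq'.1 hq'.2.1 with a2 | a2 <;>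
    rcases hvp r hr'.1 hr'.2.1 with a3 | a3 <;> simp_all

/-- the count at `p * r` is not the count at `p` -/
lemma mixed_ne {p r : ℕ} (hp : p.Prime) (hr : r.Prime) (hpr : p ≠ r) (hp3 : 3 ≤ p) (hr3 : 3 ≤ r)
    (hpd : p ∣ Nat.card G) (hrd : r ∣ Nat.card G) (h : c G (p * r) = c G p) : False := by
  have hcop : Nat.Coprime p r := (Nat.coprime_primes hp hr).mpr hpr
  have F := (dvd_mul_right p r).trans (F_pq (G := G) hp hr hpr (hcop.mul_dvd_of_dvd_of_dvd hpd hrd))
  have Fp := F_p (G := G) hp hpd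
  rw [h, show 1 + c G p + c G r + c G p = (1 + c G p) + (c G p + c G r) by ring] at F
  have h1 : p ∣ c G p + c G r := (Nat.dvd_add_right Fp).mp F
  have hnd : ¬ p ∣ c G r := by
    intro h2
    have h3 : p ∣ c G p := (Nat.dvd_add_left h2).mp h1
    exact odd_not_dvd_one hp3 ((Nat.dvd_add_left h3).mp Fp)
  have hex : ∀ v : G, orderOf v = p → ∃ u : G, orderOf u = r ∧ v * u = u * v := by
    intro v hv'
    have hvp : v ^ p = 1 := by rw [← hv']; exact pow_orderOf_eq_one v
    exact exists_commute_of_not_dvd hp hvp (fun g => orderOf g = r)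
      (fun g h hg => order_conj_invariant r g h hg) hnd
  have h2le := two_mul_le hp hr hpr hr3 hex
  rw [h] at h2le
  have := c_prime hp hpd
  omega

lemma no_sq_aux {p r : ℕ} (hp : p.Prime) (hr : r.Prime) (hpr : p ≠ r) (hp3 : 3 ≤ p) (hr3 : 3 ≤ r)
    (hpd : p ∣ Nat.card G) (hrd : r ∣ Nat.card G) (h0 : c G (p * r) = 0)
    (hv : ∀ m, 3 ≤ m → c G m = 0 ∨ c G m = c G p ∨ c G m = c G r) : c G (r ^ 2) = 0 := by
  by_contra hne
  have hcop : Nat.Coprime p r := (Nat.coprime_primes hp hr).mpr hpr
  have hd := c_dvd_of_sq (G := G) hr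
  have Fp := F_p (G := G) hp hpd
  have Fr := F_p (G := G) hr hrd
  have hm : r ^ 2 ≥ 3 := by nlinarith
  rcases hv (r ^ 2) hm with h | h | h
  · exact hne h
  · have hnd : ¬ p ∣ c G (r ^ 2) := by
      rw [h]
      intro h3
      exact odd_not_dvd_one hp3 ((Nat.dvd_add_left h3).mp Fp)
    haveI := Fact.mk hp
    obtain ⟨v, hv'⟩ := exists_prime_orderOf_dvd_card' (G := G) p hpd
    have hvp : v ^ p = 1 := by rw [← hv']; exact pow_orderOf_eq_one v
    obtain ⟨g, hg, hcomm⟩ := exists_commute_of_not_dvd hp hvp (fun g => orderOf g = r ^ 2)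
      (fun g h hg => order_conj_invariant _ g h hg) hnd
    have hu : orderOf (g ^ r) = r := by
      rw [orderOf_pow_of_dvd hr.ne_zero (by rw [hg]; exact dvd_pow_self r (by norm_num)), hg, pow_two,
        Nat.mul_div_cancel _ hr.pos]
    have hc : Commute v (g ^ r) := Commute.pow_right hcomm r
    have : orderOf (v * g ^ r) = p * r := by
      rw [hc.orderOf_mul_eq_mul_orderOf_of_coprime (by rw [hv', hu]; exact hcop), hv', hu]
    exact (c_ne_zero_iff (p * r)).mpr ⟨_, this⟩ h0
  · rw [h] at hd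
    exact odd_not_dvd_one hr3 ((Nat.dvd_add_left hd).mp Fr)

/-- orders of elements of a two-prime group -/
lemma orderOf_cases {p r : ℕ} (hπ : ∀ s : ℕ, s.Prime → s ∣ Nat.card G → s = p ∨ s = r)
    (h0 : c G (p * r) = 0) (hp2 : c G (p ^ 2) = 0) (hr2 : c G (r ^ 2) = 0) (g : G) :
    orderOf g = 1 ∨ orderOf g = p ∨ orderOf g = r := by
  by_cases h1 : orderOf g = 1
  · exact Or.inl h1
  right
  have hpos := orderOf_pos g
  set o := orderOf g with ho
  have hod : o ∣ Nat.card G := orderOf_dvd_natCard g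
  have hs := Nat.minFac_prime h1
  have hsd := Nat.minFac_dvd o
  by_cases h2 : o = o.minFac
  · rcases hπ _ hs (hsd.trans hod) with h | h
    · left; rw [h2]; exact h
    · right; rw [h2]; exact h
  exfalso
  have hq : o / o.minFac ≠ 1 := by
    intro h
    have := Nat.div_mul_cancel hsd
    rw [h, one_mul] at this
    exact h2 this.symm
  have ht := Nat.minFac_prime hq
  have htd := Nat.minFac_dvd (o / o.minFac)
  set s := o.minFac with hsdef
  set t := (o / s).minFac with htdef
  have hst : s * t ∣ o := by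
    have h3 : o = s * (o / s) := (Nat.mul_div_cancel' hsd).symm
    rw [h3]
    exact Nat.mul_dvd_mul dvd_rfl htd
  have hpow : orderOf (g ^ (o / (s * t))) = s * t := by
    rw [orderOf_pow_of_dvd (by
      intro h5
      have := Nat.div_eq_zero_iff.mp h5
      have hle := Nat.le_of_dvd hpos hst
      rcases this with h6 | h6
      · exact (Nat.mul_pos hs.pos ht.pos).ne' h6
      · omega) (Nat.div_dvd_of_dvd hst), ← ho, Nat.div_div_self hst hpos.ne']
  have hne : c G (s * t) ≠ 0 := (c_ne_zero_iff _).mpr ⟨_, hpow⟩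
  have hsG : s ∣ Nat.card G := hsd.trans hod
  have htG : t ∣ Nat.card G := (htd.trans (Nat.div_dvd_of_dvd hsd)).trans hod
  rcases hπ s hs hsG with e1 | e1 <;> rcases hπ t ht htG with e2 | e2 <;> rw [e1, e2] at hne
  · rw [← pow_two] at hne; exact hne hp2
  · exact hne h0
  · rw [mul_comm] at hne; exact hne h0
  · rw [← pow_two] at hne; exact hne hr2

end Main

section Core

variable {G : Type*} [Group G] [Finite G] {A : Type*} [CommGroup A]

lemma pow_formula (ι : A →* G) (φ : G →* MulAut A) (hφ : ∀ g a, ι (φ g a) = g * ι a * g⁻¹) (a : A) (y : G)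
    (n : ℕ) : (ι a * y) ^ n = ι (∏ j ∈ Finset.range n, φ (y ^ j) a) * y ^ n := by
  induction n with
  | zero => simp
  | succ n ih =>
    rw [pow_succ, ih, Finset.prod_range_succ, map_mul, hφ, pow_succ]
    group

/-- **Frobenius complement from a normal abelian subgroup.**  `ι` is the inclusion of a normal abelian
subgroup of exponent `p`; all elements of the group have order `1`, `p` or `r`. -/
theorem frob_core {p r : ℕ} (hp : p.Prime) (hr : r.Prime) (hpr : p ≠ r)
    (hpd : p ∣ Nat.card G) (hrd : r ∣ Nat.card G)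
    (hord : ∀ g : G, orderOf g = 1 ∨ orderOf g = p ∨ orderOf g = r)
    (ι : A →* G) (hι : Function.Injective ι) (φ : G →* MulAut A)
    (hφ : ∀ g a, ι (φ g a) = g * ι a * g⁻¹) (ha : ∃ a : A, a ≠ 1) (hAp : ∀ a : A, ι a ^ p = 1) :
    ∃ C : Subgroup G, Cfsg.IsFrobeniusComplement C ∧ (Nat.card C).Prime := by
  classical
  haveI : Fact r.Prime := ⟨hr⟩
  haveI : Fact p.Prime := ⟨hp⟩
  have hcop : Nat.Coprime p r := (Nat.coprime_primes hp hr).mpr hpr
  have hp2 := hp.two_le
  have hr2 := hr.two_le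
  have hcomm : ∀ w u : G, w ^ p = 1 → u ^ r = 1 → w * u = u * w → w = 1 ∨ u = 1 := by
    intro w u hw hu hwu
    by_contra hcon
    push_neg at hcon
    have h1 : orderOf w = p := orderOf_eq_prime hw hcon.1
    have h2 : orderOf u = r := orderOf_eq_prime hu hcon.2
    have h3 : orderOf (w * u) = p * r := by
      rw [Commute.orderOf_mul_eq_mul_orderOf_of_coprime hwu (by rw [h1, h2]; exact hcop), h1, h2]
    rcases hord (w * u) with h | h | h <;> rw [h3] at h
    · nlinarith
    · nlinarith
    · nlinarith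
  have hfix : ∀ u : G, u ^ r = 1 → u ≠ 1 → ∀ a : A, φ u a = a → a = 1 := by
    intro u hu hu1 a hfa
    have h1 : u * ι a * u⁻¹ = ι a := by rw [← hφ, hfa]
    have h2 : ι a * u = u * ι a := by
      calc ι a * u = (u * ι a * u⁻¹) * u := by rw [h1]
        _ = u * ι a := by group
    rcases hcomm _ _ (hAp a) hu h2 with h | h
    · exact hι (by rw [h, map_one])
    · exact absurd h hu1
  have hApow : ∀ a : A, a ^ r = 1 → a = 1 := by
    intro a har
    have h1 : ι a ^ r = 1 := by rw [← map_pow, har, map_one]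
    have h2 := orderOf_dvd_of_pow_eq_one h1
    have h3 := orderOf_dvd_of_pow_eq_one (hAp a)
    have h4 : orderOf (ι a) = 1 := Nat.eq_one_of_dvd_coprimes hcop h3 h2
    rw [orderOf_eq_one_iff] at h4
    exact hι (by rw [h4, map_one])
  obtain ⟨a₀, ha₀⟩ := ha
  -- Sylow subgroup
  let S : Sylow r G := default
  have hSexp : ∀ s ∈ (S : Subgroup G), s ^ r = 1 := by
    intro s hs
    obtain ⟨k, hk⟩ := S.isPGroup' ⟨s, hs⟩
    have h1 : s ^ r ^ k = 1 := by simpa using congrArg Subtype.val hk
    have h2 := orderOf_dvd_of_pow_eq_one h1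
    rcases hord s with h | h | h
    · rw [orderOf_eq_one_iff] at h
      simp [h]
    · exfalso
      rw [h] at h2
      exact hpr ((Nat.prime_dvd_prime_iff_eq hp hr).mp (hp.dvd_of_dvd_pow h2))
    · rw [← h]
      exact pow_orderOf_eq_one s
  have hSord : ∀ s ∈ (S : Subgroup G), s ≠ 1 → orderOf s = r := fun s hs hs1 =>
    orderOf_eq_prime (hSexp s hs) hs1
  have hScard : ∃ k, k ≠ 0 ∧ Nat.card (S : Subgroup G) = r ^ k := by
    refine ⟨(Nat.card G).factorization r, ?_, S.card_eq_multiplicity⟩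
    have := (hr.dvd_iff_one_le_factorization (Nat.card_pos.ne')).mp hrd
    omega
  obtain ⟨k, hk0, hkc⟩ := hScard
  haveI hSnontriv : Nontrivial (S : Subgroup G) := by
    rw [← Finite.one_lt_card_iff_nontrivial, hkc]
    exact Nat.one_lt_pow hk0 hr.one_lt
  -- the order of `S`
  have hcardS : Nat.card (S : Subgroup G) = r := by
    by_contra hne
    have hpg : IsPGroup r (S : Subgroup G) := S.isPGroup'
    haveI := hpg.center_nontrivial
    obtain ⟨z', hz'⟩ := exists_ne (1 : Subgroup.center (S : Subgroup G))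
    set z : G := ((z' : (S : Subgroup G)) : G) with hz
    have hzS : z ∈ (S : Subgroup G) := (z' : (S : Subgroup G)).2
    have hz1 : z ≠ 1 := by
      intro h
      apply hz'
      exact Subtype.ext (Subtype.ext h)
    have hzo := hSord z hzS hz1
    have hexg : ∃ g ∈ (S : Subgroup G), g ∉ Subgroup.zpowers z := by
      by_contra hcon
      push_neg at hcon
      have hle : (S : Subgroup G) ≤ Subgroup.zpowers z := hcon
      have hle2 : Subgroup.zpowers z ≤ (S : Subgroup G) := by
        rw [Subgroup.zpowers_le]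
        exact hzS
      have := le_antisymm hle hle2
      apply hne
      rw [this, Nat.card_zpowers, hzo]
    obtain ⟨g, hgS, hgz⟩ := hexg
    have hcommgz : Commute g z := by
      have h := (Subgroup.mem_center_iff.mp z'.2) ⟨g, hgS⟩
      have h2 : (g * z) = z * g := by
        have := congrArg Subtype.val h
        simpa [hz] using this
      exact h2
    have hall : ∀ a : A, a ^ r = 1 := by
      apply rank_two φ hcommgz hr.pos (hSexp g hgS) (hSexp z hzS)
      · intro i hi a hfa
        refine hfix (g * z ^ i) (hSexp _ (mul_mem hgS (pow_mem hzS i))) ?_ a hfa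
        intro h
        apply hgz
        have : g = (z ^ i)⁻¹ := eq_inv_of_mul_eq_one_left h
        rw [this]
        exact inv_mem (pow_mem (Subgroup.mem_zpowers z) i)
      · intro j hj0 hjr a hfa
        refine hfix (z ^ j) (hSexp _ (pow_mem hzS j)) ?_ a hfa
        exact pow_ne_one_of_lt_orderOf hj0.ne' (by rw [hzo]; exact hjr)
    exact ha₀ (hApow a₀ (hall a₀))
  -- no element of order `p` normalises `S`
  have hnotnorm : ∀ x₀ : G, x₀ ^ p = 1 → x₀ ≠ 1 → (∀ s ∈ (S : Subgroup G), x₀ * s * x₀⁻¹ ∈ (S : Subgroup G)) →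
      False := by
    intro x₀ hx₀ hx₀1 hN
    haveI := Fintype.ofFinite (S : Subgroup G)
    have hx₀o : orderOf x₀ = p := orderOf_eq_prime hx₀ hx₀1
    have hNpow : ∀ j : ℕ, ∀ s ∈ (S : Subgroup G), x₀ ^ j * s * (x₀ ^ j)⁻¹ ∈ (S : Subgroup G) := by
      intro j
      induction j with
      | zero => intro s hs; simpa using hs
      | succ j ih =>
        intro s hs
        have h1 := hN _ (ih s hs)
        rw [show x₀ ^ (j + 1) * s * (x₀ ^ (j + 1))⁻¹ = x₀ * (x₀ ^ j * s * (x₀ ^ j)⁻¹) * x₀⁻¹ by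
          rw [pow_succ']; group]
        exact h1
    have hpowne : ∀ j, 0 < j → j < p → x₀ ^ j ≠ 1 := fun j h1 h2 =>
      pow_ne_one_of_lt_orderOf h1.ne' (by rw [hx₀o]; exact h2)
    have hnorm : ∀ w : A, ∏ s : (S : Subgroup G), φ (s : G) w = 1 := by
      intro w
      obtain ⟨u', hu'⟩ := exists_ne (1 : (S : Subgroup G))
      have hu1 : (u' : G) ≠ 1 := fun h => hu' (Subtype.ext h)
      refine hfix u' (hSexp _ u'.2) hu1 _ ?_
      rw [map_prod]
      have h1 : ∀ s : (S : Subgroup G), φ (u' : G) (φ (s : G) w) = φ ((u' * s : (S : Subgroup G)) : G) w := by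
        intro s
        rw [Subgroup.coe_mul, map_mul]
        rfl
      simp_rw [h1]
      exact Equiv.prod_comp (Equiv.mulLeft u') (fun s : (S : Subgroup G) => φ (s : G) w)
    have hb : ∀ s ∈ (S : Subgroup G), ∀ w : A, ∏ j ∈ Finset.range p, φ (s * x₀ ^ j * s⁻¹) w = 1 := by
      intro s hs w
      set y : G := s * x₀ * s⁻¹ with hy
      have hyj : ∀ j : ℕ, s * x₀ ^ j * s⁻¹ = y ^ j := fun j => by rw [hy, conj_pow]
      simp_rw [hyj]
      have hyp : y ^ p = 1 := by rw [← hyj, hx₀]; group
      have hform := pow_formula ι φ hφ w y p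
      rw [hyp, mul_one] at hform
      apply hι
      rw [map_one, ← hform]
      -- `(ι w * y) ^ p = 1`
      rcases hord (ι w * y) with h | h | h
      · rw [orderOf_eq_one_iff] at h
        simp [h]
      · rw [← h]
        exact pow_orderOf_eq_one _
      · have h1 : (ι w * y) ^ r = 1 := by
          rw [← h]
          exact pow_orderOf_eq_one _
        have h2 := pow_formula ι φ hφ w y r
        rw [h1] at h2
        -- `y ^ r` lies in the image
        obtain ⟨b, hb'⟩ : ∃ b : A, ι b = y ^ r := by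
          refine ⟨(∏ j ∈ Finset.range r, φ (y ^ j) w)⁻¹, ?_⟩
          rw [map_inv]
          exact inv_eq_of_mul_eq_one_right h2.symm
        obtain ⟨m, hm⟩ := Nat.exists_mul_mod_eq_one_of_coprime hcop.symm hp.one_lt
        have hyy : y = ι (b ^ m) := by
          rw [map_pow, hb', ← pow_mul, pow_eq_pow_mod _ hyp, hm.2, pow_one]
        rw [hyy, ← map_mul]
        exact hAp _
    have hres := trick φ (S : Subgroup G) hp.pos hnorm hb
      (fun j h0 hj s hs => by
        have h1 := hNpow j s⁻¹ (inv_mem hs)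
        rw [show s * x₀ ^ j * s⁻¹ * (x₀ ^ j)⁻¹ = s * (x₀ ^ j * s⁻¹ * (x₀ ^ j)⁻¹) by group]
        exact mul_mem hs h1)
      (fun j h0 hj s₁ hs₁ s₂ hs₂ h => by
        set u := s₂⁻¹ * s₁ with hu
        have huS : u ∈ (S : Subgroup G) := mul_mem (inv_mem hs₂) hs₁
        have h1 : x₀ ^ j * u = u * x₀ ^ j := by
          have h2 : s₂⁻¹ * (s₁ * x₀ ^ j * s₁⁻¹) * s₂ = x₀ ^ j := by
            rw [h]; group
          calc x₀ ^ j * u = (s₂⁻¹ * (s₁ * x₀ ^ j * s₁⁻¹) * s₂) * u := by rw [h2]
            _ = u * x₀ ^ j := by rw [hu]; group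
        have h3 : (x₀ ^ j) ^ p = 1 := by
          rw [← pow_mul, mul_comm, pow_mul, hx₀, one_pow]
        rcases hcomm _ _ h3 (hSexp u huS) h1 with h4 | h4
        · exact absurd h4 (hpowne j h0 hj)
        · rw [hu, inv_mul_eq_one] at h4
          exact h4.symm) a₀
    rw [← Nat.card_eq_fintype_card, hcardS] at hres
    exact ha₀ (hApow a₀ hres)
  -- the complement
  refine ⟨(S : Subgroup G), ⟨?_, ?_, ?_⟩, by rw [hcardS]; exact hr⟩
  · intro h
    rw [h] at hcardS
    simp at hcardS
    omega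
  · intro h
    rw [h, Subgroup.card_top] at hcardS
    rw [hcardS] at hpd
    exact hpr ((Nat.prime_dvd_prime_iff_eq hp hr).mp hpd)
  · intro g hg
    by_contra hne
    obtain ⟨d, hd, hd1⟩ := (Subgroup.bot_or_exists_ne_one _).resolve_left hne
    have hdS : d ∈ (S : Subgroup G) := hd.1
    have hdT : d ∈ MulAut.conj g • (S : Subgroup G) := hd.2
    have hdo := hSord d hdS hd1
    have hzS : Subgroup.zpowers d = (S : Subgroup G) := by
      apply Subgroup.eq_of_le_of_card_ge
      · rw [Subgroup.zpowers_le]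
        exact hdS
      · rw [Nat.card_zpowers, hdo, hcardS]
    have hcardT : Nat.card (MulAut.conj g • (S : Subgroup G) : Subgroup G) = r := by
      exact (Nat.card_congr (Subgroup.equivSMul (MulAut.conj g) (S : Subgroup G)).toEquiv.symm).trans hcardS
    have hzT : Subgroup.zpowers d = MulAut.conj g • (S : Subgroup G) := by
      apply Subgroup.eq_of_le_of_card_ge
      · rw [Subgroup.zpowers_le]
        exact hdT
      · rw [Nat.card_zpowers, hdo, hcardT]
    have hST : (S : Subgroup G) = MulAut.conj g • (S : Subgroup G) := hzS.symm.trans hzT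
    have hN : ∀ s, s ∈ (S : Subgroup G) ↔ g * s * g⁻¹ ∈ (S : Subgroup G) := by
      intro s
      constructor
      · intro hs
        rw [hST]
        exact Subgroup.smul_mem_pointwise_smul s (MulAut.conj g) _ hs
      · intro hs
        rw [hST] at hs
        exact (Subgroup.smul_mem_pointwise_smul_iff (a := MulAut.conj g)).mp hs
    have hg1 : g ≠ 1 := fun h => hg (h ▸ one_mem _)
    rcases hord g with h | h | h
    · exact hg1 (orderOf_eq_one_iff.mp h)
    · exact hnotnorm g (by rw [← h]; exact pow_orderOf_eq_one g) hg1 (fun s hs => (hN s).mp hs)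
    · apply hg
      have hP : IsPGroup r (Subgroup.zpowers g) := by
        apply IsPGroup.of_card (n := 1)
        rw [Nat.card_zpowers, h, pow_one]
      have hmem : g ∈ Subgroup.zpowers g ⊓ Subgroup.normalizer ((S : Subgroup G) : Set G) :=
        ⟨Subgroup.mem_zpowers g, Subgroup.mem_normalizer_iff.mpr hN⟩
      exact ((hP.inf_normalizer_sylow S).le hmem).2

end Core

section Final

variable {G : Type*} [Group G] [Finite G]

/-- **The two-prime case.** -/
theorem two_primes (h3 : Three G) (hodd : Odd (Nat.card G)) {p r : ℕ} (hp : p.Prime) (hr : r.Prime)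
    (hpr : p ≠ r) (hpd : p ∣ Nat.card G) (hrd : r ∣ Nat.card G)
    (hπ : ∀ s : ℕ, s.Prime → s ∣ Nat.card G → s = p ∨ s = r) :
    (∀ (s : ℕ) [Fact s.Prime] (P : Sylow s G), s ∣ Nat.card G → Monoid.exponent ↥(P : Subgroup G) = s) ∧
      ∃ C : Subgroup G, Cfsg.IsFrobeniusComplement C ∧ (Nat.card ↥C).Prime := by
  classical
  have hp3 := three_le_of_odd hp hodd hpd
  have hr3 := three_le_of_odd hr hodd hrd
  have hne : c G p ≠ c G r := fun hc => same_class_false h3 hodd hp hr hpr hpd hrd hc
  have hcop : Nat.Coprime p r := (Nat.coprime_primes hp hr).mpr hpr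
  have hx0 : c G p ≠ 0 := c_prime hp hpd
  have hr0 : c G r ≠ 0 := c_prime hr hrd
  obtain ⟨y, hy1, hyx, hv⟩ := exists_vals h3 (m₀ := p) rfl hx0 (c_ne_one hp3)
  have hyr : c G r = y := by
    rcases hv r with h | h | h | h
    · exact absurd h hr0
    · exact absurd h (c_ne_one hr3)
    · exact absurd h.symm hne
    · exact h
  have hv3 : ∀ m, 3 ≤ m → c G m = 0 ∨ c G m = c G p ∨ c G m = c G r := by
    intro m hm
    rw [hyr]
    rcases hv m with h | h | h | h
    · exact Or.inl h
    · exact absurd h (c_ne_one hm)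
    · exact Or.inr (Or.inl h)
    · exact Or.inr (Or.inr h)
  have hm9 : p * r ≥ 3 * 3 := Nat.mul_le_mul hp3 hr3
  have h0 : c G (p * r) = 0 := by
    rcases hv3 (p * r) (by omega) with h | h | h
    · exact h
    · exact (mixed_ne hp hr hpr hp3 hr3 hpd hrd h).elim
    · rw [mul_comm] at h
      exact (mixed_ne hr hp hpr.symm hr3 hp3 hrd hpd h).elim
  have hr2 : c G (r ^ 2) = 0 := no_sq_aux hp hr hpr hp3 hr3 hpd hrd h0 hv3
  have hp2 : c G (p ^ 2) = 0 :=
    no_sq_aux hr hp hpr.symm hr3 hp3 hrd hpd (by rw [mul_comm]; exact h0)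
      (fun m hm => (hv3 m hm).elim Or.inl (fun h => Or.inr h.symm))
  have hord := orderOf_cases hπ h0 hp2 hr2
  refine ⟨?_, ?_⟩
  · -- exponent
    intro s _ P hsd
    have hs : s.Prime := Fact.out
    have hsπ := hπ s hs hsd
    have hpow : ∀ x : (P : Subgroup G), x ^ s = 1 := by
      intro x
      obtain ⟨k, hk⟩ := P.isPGroup' x
      have h1 : (x : G) ^ s ^ k = 1 := by simpa using congrArg Subtype.val hk
      have h2 := orderOf_dvd_of_pow_eq_one h1
      have hx : (x : G) ^ s = 1 := by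
        rcases hord x with h | h | h
        · rw [orderOf_eq_one_iff] at h
          simp [h]
        · have h3 : p = s := by
            rw [h] at h2
            exact (Nat.prime_dvd_prime_iff_eq hp hs).mp (hp.dvd_of_dvd_pow h2)
          have h4 : (x : G) ^ p = 1 := by rw [← h]; exact pow_orderOf_eq_one _
          rwa [h3] at h4
        · have h3 : r = s := by
            rw [h] at h2
            exact (Nat.prime_dvd_prime_iff_eq hr hs).mp (hr.dvd_of_dvd_pow h2)
          have h4 : (x : G) ^ r = 1 := by rw [← h]; exact pow_orderOf_eq_one _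
          rwa [h3] at h4
      exact Subtype.ext (by simpa using hx)
    have h1 := Monoid.exponent_dvd_of_forall_pow_eq_one hpow
    rcases (Nat.dvd_prime hs).mp h1 with h | h
    · exfalso
      rw [Monoid.exp_eq_one_iff] at h
      have hc : Nat.card (P : Subgroup G) = 1 := Nat.card_of_subsingleton (1 : (P : Subgroup G))
      rw [P.card_eq_multiplicity] at hc
      have h4 := (hs.dvd_iff_one_le_factorization (Nat.card_pos.ne')).mp hsd
      have h5 : s ^ (Nat.card G).factorization s ≠ 1 := by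
        apply Nat.ne_of_gt
        exact Nat.one_lt_pow (by omega) hs.one_lt
      exact h5 hc
    · exact h
  · -- the complement
    have hcardG : Nat.card G = p ^ (Nat.card G).factorization p * r ^ (Nat.card G).factorization r := by
      have h1 := Nat.prod_factorization_pow_eq_self (n := Nat.card G) Nat.card_pos.ne'
      have hsub : (Nat.card G).factorization.support ⊆ ({p, r} : Finset ℕ) := by
        intro s hs
        rw [Nat.support_factorization] at hs
        have hs' := Nat.mem_primeFactors.mp hs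
        simpa using hπ s hs'.1 hs'.2.1
      rw [Finsupp.prod_of_support_subset _ hsub _ (by simp), Finset.prod_pair hpr] at h1
      exact h1.symm
    haveI hsol : Group.IsSolvable G := Cfsg.Agent.S0144.result p r _ _ hp hr hcardG
    haveI hnt : Nontrivial G := by
      rw [← Finite.one_lt_card_iff_nontrivial]
      have := Nat.le_of_dvd Nat.card_pos hpd
      have := hp.one_lt
      omega
    obtain ⟨q, N, hq, hNn, hNbot, -, hNc, hNq⟩ :=
      Cfsg.Agent.Lib.Solvable.Hall.exists_normal_abelian_pSubgroup G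
    haveI := hNn
    obtain ⟨w, hwN, hw1⟩ := (Subgroup.bot_or_exists_ne_one N).resolve_left hNbot
    haveI := Fact.mk hq
    have hwo : orderOf w = q := orderOf_eq_prime (hNq w hwN) hw1
    have hqd : q ∣ Nat.card G := by
      rw [← hwo]
      exact orderOf_dvd_natCard w
    letI cg : CommGroup N := { (inferInstance : Group N) with mul_comm := fun a b => hNc.is_comm.comm a b }
    have ha : ∃ a : N, a ≠ 1 := ⟨⟨w, hwN⟩, fun h => hw1 (congrArg Subtype.val h)⟩
    have hAp : ∀ a : N, (N.subtype a) ^ q = 1 := fun a => hNq a a.2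
    have hι : Function.Injective N.subtype := N.subtype_injective
    rcases hπ q hq hqd with rfl | rfl
    · exact frob_core hq hr hpr hqd hrd hord N.subtype hι MulAut.conjNormal
        (fun g a => MulAut.conjNormal_apply g a) ha hAp
    · exact frob_core hq hp hpr.symm hqd hpd (fun g => (hord g).elim Or.inl (fun h => Or.inr h.symm))
        N.subtype hι MulAut.conjNormal (fun g a => MulAut.conjNormal_apply g a) ha hAp

end Final

end Cfsg.Agent.Lib.SameOrder
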