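import Cfsg.Agent.S3995
import Cfsg.Agent.Lib.PGroup.KulakoffE
import Cfsg.Agent.S0144
import Mathlib

/-!
# Exactly three same-order counts: arithmetic core

`c G m` is the number of elements of order `m`.  The Frobenius congruences give the
numerical constraints used for S3996 and S4004.
-/

set_option autoImplicit false

universe u

namespace Cfsg.Agent.Lib.SameOrder

open Cfsg.Agent.S3995

section
variable {G : Type*} [Group G] [Finite G]

/-- the hypothesis of S3996 and S4004 -/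
def Three (G : Type*) [Group G] : Prop :=
  (((fun m : ℕ => Nat.card {g : G // orderOf g = m}) '' Set.range (orderOf : G → ℕ))).ncard = 3

lemma totient_dvd_c (m : ℕ) : m.totient ∣ c G m :=
  Cfsg.Agent.Lib.PGroup.KulakoffE.totient_dvd_card_order m

lemma c_even {m : ℕ} (hm : 3 ≤ m) : 2 ∣ c G m :=
  (Nat.totient_even (by omega)).two_dvd.trans (totient_dvd_c m)

lemma c_ne_one {m : ℕ} (hm : 3 ≤ m) : c G m ≠ 1 := fun h => by
  have := c_even (G := G) hm
  rw [h] at this
  omega

lemma exists_vals (h : Three G) {x : ℕ} {m₀ : ℕ} (hx : c G m₀ = x) (hx0 : x ≠ 0) (hx1 : x ≠ 1) :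
    ∃ b, b ≠ 1 ∧ b ≠ x ∧ (∀ m, c G m = 0 ∨ c G m = 1 ∨ c G m = x ∨ c G m = b) := by
  classical
  set V : Set ℕ := (fun m : ℕ => Nat.card {g : G // orderOf g = m}) '' Set.range (orderOf : G → ℕ)
    with hV
  have hmem : ∀ m, c G m ≠ 0 → c G m ∈ V := by
    intro m hm
    obtain ⟨g, hg⟩ := (c_ne_zero_iff m).mp hm
    exact ⟨orderOf g, ⟨g, rfl⟩, by rw [hg]; rfl⟩
  have h1 : (1 : ℕ) ∈ V := by
    have := hmem 1 (by rw [c_one]; norm_num)
    rwa [c_one] at this
  have hxV : x ∈ V := by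
    rw [← hx]
    exact hmem m₀ (by rw [hx]; exact hx0)
  have hsub : ({1, x} : Set ℕ) ⊆ V := by
    intro y hy
    rcases hy with rfl | hy
    · exact h1
    · rw [Set.mem_singleton_iff.mp hy]; exact hxV
  have hcard : (V \ {1, x}).ncard = 1 := by
    have h2 := Set.ncard_sdiff hsub (Set.toFinite _)
    rw [h2, show V.ncard = 3 from h, Set.ncard_pair (Ne.symm hx1)]
  obtain ⟨b, hb⟩ := Set.ncard_eq_one.mp hcard
  have hbm : b ∈ V \ {1, x} := by rw [hb]; rfl
  refine ⟨b, ?_, ?_, ?_⟩
  · intro h'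
    exact hbm.2 (by simp [h'])
  · intro h'
    exact hbm.2 (by simp [h'])
  · intro m
    by_cases h0 : c G m = 0
    · exact Or.inl h0
    right
    by_cases h1' : c G m = 1
    · exact Or.inl h1'
    right
    by_cases h2' : c G m = x
    · exact Or.inl h2'
    right
    have : c G m ∈ V \ {1, x} := ⟨hmem m h0, by simp [h1', h2']⟩
    rw [hb] at this
    exact this

lemma ncard_vals_pair (h : Three G) :
    ∃ a b, a ≠ 1 ∧ b ≠ 1 ∧ a ≠ b ∧ a ≠ 0 ∧ b ≠ 0 ∧
      (∀ m, c G m = 0 ∨ c G m = 1 ∨ c G m = a ∨ c G m = b) ∧ (∃ m, c G m = a) ∧ (∃ m, c G m = b) := by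
  classical
  set V : Set ℕ := (fun m : ℕ => Nat.card {g : G // orderOf g = m}) '' Set.range (orderOf : G → ℕ)
    with hV
  have hmem : ∀ m, c G m ≠ 0 → c G m ∈ V := by
    intro m hm
    obtain ⟨g, hg⟩ := (c_ne_zero_iff m).mp hm
    exact ⟨orderOf g, ⟨g, rfl⟩, by rw [hg]; rfl⟩
  have h1 : (1 : ℕ) ∈ V := by
    have := hmem 1 (by rw [c_one]; norm_num)
    rwa [c_one] at this
  have hcard : (V \ {1}).ncard = 2 := by
    have h2 := Set.ncard_sdiff (s := ({1} : Set ℕ)) (t := V) (by simpa using h1) (Set.toFinite _)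
    rw [h2, show V.ncard = 3 from h]
    simp
  obtain ⟨a, b, hab, hb⟩ := Set.ncard_eq_two.mp hcard
  have ha' : a ∈ V \ {1} := by rw [hb]; simp
  have hb' : b ∈ V \ {1} := by rw [hb]; simp
  have hne0 : ∀ y ∈ V, y ≠ 0 ∧ ∃ m, c G m = y := by
    rintro y ⟨m, ⟨g, rfl⟩, rfl⟩
    refine ⟨?_, orderOf g, rfl⟩
    exact (c_ne_zero_iff (G := G) _).mpr ⟨g, rfl⟩
  refine ⟨a, b, by simpa using ha'.2, by simpa using hb'.2, hab, (hne0 a ha'.1).1, (hne0 b hb'.1).1,
    ?_, (hne0 a ha'.1).2, (hne0 b hb'.1).2⟩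
  intro m
  by_cases h0 : c G m = 0
  · exact Or.inl h0
  right
  by_cases h1' : c G m = 1
  · exact Or.inl h1'
  right
  have : c G m ∈ V \ {1} := ⟨hmem m h0, by simp [h1']⟩
  rw [hb] at this
  simpa using this

lemma F_p {p : ℕ} (hp : p.Prime) (hd : p ∣ Nat.card G) : p ∣ 1 + c G p := by
  have L1 := frob p hd _ (hD_p (G := G) hp)
  have hp1 : (1 : ℕ) ≠ p := hp.one_lt.ne
  rwa [Finset.sum_pair hp1, c_one] at L1

/-- Frobenius for the product of two distinct primes -/
lemma F_pq {p q : ℕ} (hp : p.Prime) (hq : q.Prime) (hpq : p ≠ q) (hd : p * q ∣ Nat.card G) :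
    p * q ∣ 1 + c G p + c G q + c G (p * q) := by
  have L2 := frob _ hd _ (hD_pq (G := G) hp hq)
  have h1p := hp.one_lt
  have h1q := hq.one_lt
  have hm1 : p * q ≥ 2 * q := Nat.mul_le_mul_right q (by omega)
  have hm2 : p * q ≥ p * 2 := Nat.mul_le_mul_left p (by omega)
  rw [Finset.sum_insert (by
      simp only [Finset.mem_insert, Finset.mem_singleton]
      omega),
    Finset.sum_insert (by
      simp only [Finset.mem_insert, Finset.mem_singleton]
      omega),
    Finset.sum_pair (by omega), c_one] at L2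
  rwa [show 1 + c G p + c G q + c G (p * q) = 1 + (c G p + (c G q + c G (p * q))) by ring]

lemma frob4 (n : ℕ) (hn : n ∣ Nat.card G) (h2 : 2 * n ∣ Nat.card G) (h4 : 4 * n ∣ Nat.card G)
    (D : Finset ℕ) (hD : ∀ g : G, (g ^ (4 * n) = 1 ∧ g ^ (2 * n) ≠ 1) ↔ orderOf g ∈ D) :
    n ∣ ∑ d ∈ D, c G d := by
  classical
  haveI := Fintype.ofFinite G
  have h1 := Cfsg.Agent.S3993.result (G := G) (4 * n) h4
  have h2' := Cfsg.Agent.S3993.result (G := G) (2 * n) h2
  have hA : Nat.card {g : G // g ^ (4 * n) = 1} =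
      Nat.card {g : G // g ^ (2 * n) = 1} + ∑ d ∈ D, c G d := by
    rw [Nat.card_eq_fintype_card, Nat.card_eq_fintype_card, Fintype.card_subtype, Fintype.card_subtype]
    have hsum : ∑ d ∈ D, c G d =
        (Finset.univ.filter (fun g : G => g ^ (4 * n) = 1 ∧ g ^ (2 * n) ≠ 1)).card := by
      rw [Finset.card_eq_sum_card_fiberwise (f := orderOf) (t := D) (fun g hg => by
        simpa [hD] using (hD g).mp (by simpa using hg))]
      apply Finset.sum_congr rfl
      intro d hd
      unfold c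
      rw [Nat.card_eq_fintype_card, Fintype.card_subtype]
      congr 1
      ext g
      simp only [Finset.mem_filter, Finset.mem_univ, true_and]
      constructor
      · intro h
        exact ⟨(hD g).mpr (h ▸ hd), h⟩
      · exact fun h => h.2
    rw [hsum, ← Finset.card_union_of_disjoint]
    · congr 1
      ext g
      simp only [Finset.mem_filter, Finset.mem_univ, true_and, Finset.mem_union]
      constructor
      · intro h
        by_cases h3 : g ^ (2 * n) = 1
        · exact Or.inl h3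
        · exact Or.inr ⟨h, h3⟩
      · rintro (h | h)
        · rw [show 4 * n = 2 * (2 * n) by ring, pow_mul', h, one_pow]
        · exact h.1
    · rw [Finset.disjoint_left]
      intro g hg hg'
      simp only [Finset.mem_filter, Finset.mem_univ, true_and] at hg hg'
      exact hg'.2 hg
  have h3 : n ∣ Nat.card {g : G // g ^ (4 * n) = 1} := (dvd_mul_left n 4).trans h1
  have h4' : n ∣ Nat.card {g : G // g ^ (2 * n) = 1} := (dvd_mul_left n 2).trans h2'
  rw [hA] at h3
  exact (Nat.dvd_add_right h4').mp h3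

lemma odd_not_dvd_of_two {p : ℕ} (hp3 : 3 ≤ p) (hp : p.Prime) {n : ℕ} (h : p ∣ n + n) : p ∣ n := by
  rw [← two_mul] at h
  exact (hp.dvd_mul.mp h).resolve_left (fun h2 => odd_not_dvd_two hp3 h2)

/-- divisor description for `n = p` -/
lemma hD4_p {p : ℕ} (hp : p.Prime) (hp3 : 3 ≤ p) (g : G) :
    (g ^ (4 * p) = 1 ∧ g ^ (2 * p) ≠ 1) ↔ orderOf g ∈ ({4, 4 * p} : Finset ℕ) := by
  rw [← orderOf_dvd_iff_pow_eq_one, Ne, ← orderOf_dvd_iff_pow_eq_one]
  simp only [Finset.mem_insert, Finset.mem_singleton]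
  have hpodd : ¬ 2 ∣ p := fun h => by
    have := (Nat.prime_dvd_prime_iff_eq Nat.prime_two hp).mp h
    omega
  constructor
  · rintro ⟨h1, h2⟩
    obtain ⟨a, b, ha, hb, hab⟩ := (Nat.dvd_mul).mp h1
    have ha' : a = 1 ∨ a = 2 ∨ a = 4 := by
      have h1 : a ∈ Nat.divisors 4 := Nat.mem_divisors.mpr ⟨ha, by norm_num⟩
      have h2 : Nat.divisors 4 = {1, 2, 4} := by decide
      rw [h2] at h1
      simpa using h1
    rcases ha' with rfl | rfl | rfl
    · exfalso
      apply h2
      rw [← hab, one_mul]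
      exact hb.trans (dvd_mul_left _ _)
    · exfalso
      apply h2
      rw [← hab]
      exact Nat.mul_dvd_mul dvd_rfl hb
    · rcases (Nat.dvd_prime hp).mp hb with rfl | rfl
      · left; simpa using hab.symm
      · right; exact hab.symm
  · rintro (h | h)
    · rw [h]
      refine ⟨dvd_mul_right _ _, ?_⟩
      intro h'
      have : 2 ∣ p := by
        rw [show (4 : ℕ) = 2 * 2 by norm_num] at h'
        exact Nat.dvd_of_mul_dvd_mul_left (by norm_num) h'
      exact hpodd this
    · rw [h]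
      refine ⟨dvd_rfl, ?_⟩
      intro h'
      have := Nat.le_of_dvd (by have := hp.pos; omega) h'
      have := hp.pos
      omega

/-- divisor description for `n = p q` -/
lemma hD4_pq {p q : ℕ} (hp : p.Prime) (hq : q.Prime) (hp3 : 3 ≤ p) (hq3 : 3 ≤ q) (g : G) :
    (g ^ (4 * (p * q)) = 1 ∧ g ^ (2 * (p * q)) ≠ 1) ↔
      orderOf g ∈ ({4, 4 * p, 4 * q, 4 * (p * q)} : Finset ℕ) := by
  rw [← orderOf_dvd_iff_pow_eq_one, Ne, ← orderOf_dvd_iff_pow_eq_one]
  simp only [Finset.mem_insert, Finset.mem_singleton]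
  have hpodd : ¬ 2 ∣ p := fun h => by
    have := (Nat.prime_dvd_prime_iff_eq Nat.prime_two hp).mp h
    omega
  have hqodd : ¬ 2 ∣ q := fun h => by
    have := (Nat.prime_dvd_prime_iff_eq Nat.prime_two hq).mp h
    omega
  have hpq : ¬ 2 ∣ p * q := fun h => (Nat.prime_two.dvd_mul.mp h).elim hpodd hqodd
  have key : ∀ d, d ∣ p * q → ¬ (4 * d ∣ 2 * (p * q)) := by
    intro d _ h'
    have : 2 * 2 * d ∣ 2 * (p * q) := by simpa [show (4 : ℕ) = 2 * 2 by norm_num] using h'
    rw [mul_assoc] at this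
    have h3 := Nat.dvd_of_mul_dvd_mul_left (by norm_num) this
    exact hpq ((dvd_mul_right 2 d).trans h3)
  constructor
  · rintro ⟨h1, h2⟩
    obtain ⟨a, b, ha, hb, hab⟩ := (Nat.dvd_mul).mp h1
    have ha' : a = 1 ∨ a = 2 ∨ a = 4 := by
      have h1 : a ∈ Nat.divisors 4 := Nat.mem_divisors.mpr ⟨ha, by norm_num⟩
      have h2 : Nat.divisors 4 = {1, 2, 4} := by decide
      rw [h2] at h1
      simpa using h1
    rcases ha' with rfl | rfl | rfl
    · exfalso
      apply h2
      rw [← hab, one_mul]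
      exact hb.trans (dvd_mul_left _ _)
    · exfalso
      apply h2
      rw [← hab]
      exact Nat.mul_dvd_mul dvd_rfl hb
    · obtain ⟨b₁, b₂, hb₁, hb₂, hbb⟩ := (Nat.dvd_mul).mp hb
      rcases (Nat.dvd_prime hp).mp hb₁ with rfl | rfl <;>
        rcases (Nat.dvd_prime hq).mp hb₂ with rfl | rfl
      · left; rw [← hab, ← hbb]
      · right; right; left; rw [← hab, ← hbb, one_mul]
      · right; left; rw [← hab, ← hbb, mul_one]
      · right; right; right; rw [← hab, ← hbb]
  · rintro (h | h | h | h) <;> rw [h]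
    · exact ⟨dvd_mul_right _ _, by simpa using key 1 (one_dvd _)⟩
    · exact ⟨Nat.mul_dvd_mul dvd_rfl (dvd_mul_right _ _), key p (dvd_mul_right _ _)⟩
    · exact ⟨Nat.mul_dvd_mul dvd_rfl (dvd_mul_left _ _), key q (dvd_mul_left _ _)⟩
    · exact ⟨dvd_rfl, key _ dvd_rfl⟩


/-- the case `c G p = c G 4` -/
lemma core4 {a b : ℕ} (ha : c G 4 = a) (ha4 : 4 ∣ 2 + a) (hb0 : ∀ m, 4 ∣ m.totient → c G m = 0 ∨ c G m = b)
    (hv : ∀ m, 3 ≤ m → c G m = 0 ∨ c G m = a ∨ c G m = b)
    {p q : ℕ} (hp : p.Prime) (hq : q.Prime) (hp3 : 3 ≤ p) (hq3 : 3 ≤ q) (hpq : p ≠ q)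
    (h4 : 4 ∣ Nat.card G) (hpd : p ∣ Nat.card G) (hqd : q ∣ Nat.card G) (hcp : c G p = a) : False := by
  have hcop : Nat.Coprime p q := (Nat.coprime_primes hp hq).mpr hpq
  have hdpq : p * q ∣ Nat.card G := hcop.mul_dvd_of_dvd_of_dvd hpd hqd
  have hc4p : Nat.Coprime 4 p := by
    rw [show (4 : ℕ) = 2 ^ 2 by norm_num]
    exact Nat.Coprime.pow_left 2 ((Nat.coprime_primes Nat.prime_two hp).mpr (by omega))
  have hc4q : Nat.Coprime 4 q := by
    rw [show (4 : ℕ) = 2 ^ 2 by norm_num]
    exact Nat.Coprime.pow_left 2 ((Nat.coprime_primes Nat.prime_two hq).mpr (by omega))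
  have hc4pq : Nat.Coprime 4 (p * q) := Nat.Coprime.mul_right hc4p hc4q
  have h4dp : 4 * p ∣ Nat.card G := hc4p.mul_dvd_of_dvd_of_dvd h4 hpd
  have h4dq : 4 * q ∣ Nat.card G := hc4q.mul_dvd_of_dvd_of_dvd h4 hqd
  have h4dpq : 4 * (p * q) ∣ Nat.card G := hc4pq.mul_dvd_of_dvd_of_dvd h4 hdpq
  have h2d : ∀ n, 4 * n ∣ Nat.card G → 2 * n ∣ Nat.card G := fun n h =>
    (Nat.mul_dvd_mul (by norm_num) dvd_rfl).trans h
  have hpe := hp.two_le
  have hqe := hq.two_le
  have tot2 : ∀ r : ℕ, r.Prime → 3 ≤ r → 2 ∣ r - 1 := by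
    intro r hr hr3
    have := hr.eq_two_or_odd'
    rcases this with h | h
    · omega
    · obtain ⟨k, hk⟩ := h
      exact ⟨k, by omega⟩
  -- `F_p`
  have Fp := F_p (G := G) hp hpd
  rw [hcp] at Fp
  have Fp' : p ∣ a + 1 := by rwa [add_comm] at Fp
  have hnb : ∀ {r : ℕ}, r.Prime → 3 ≤ r → r ∣ a + 1 → r ∣ a + b → ¬ r ∣ b := by
    intro r hr hr3 h1 h2 h3
    have h4 : r ∣ a := (Nat.dvd_add_left h3).mp h2
    have h5 : r ∣ 1 := (Nat.dvd_add_right h4).mp h1
    exact odd_not_dvd_one hr3 h5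
  -- the value at `4 * r`
  have key4 : ∀ {r : ℕ}, r.Prime → 3 ≤ r → r ∣ Nat.card G → r ∣ a + 1 → 4 * r ∣ Nat.card G →
      c G (4 * r) = b ∧ r ∣ a + b := by
    intro r hr hr3 hrd hra h4r
    have F := frob4 (G := G) r hrd (h2d r h4r) h4r _ (hD4_p hr hr3)
    rw [Finset.sum_pair (by omega), ha] at F
    have htot : 4 ∣ (4 * r).totient := by
      rw [Nat.totient_mul (by
        rw [show (4 : ℕ) = 2 ^ 2 by norm_num]
        exact Nat.Coprime.pow_left 2 ((Nat.coprime_primes Nat.prime_two hr).mpr (by omega))),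
        Nat.totient_prime hr, show Nat.totient 4 = 2 by decide]
      exact Nat.mul_dvd_mul_left 2 (tot2 r hr hr3)
    rcases hb0 _ htot with h0 | h0
    · rw [h0, add_zero] at F
      exact absurd ((Nat.dvd_add_right F).mp hra) (odd_not_dvd_one hr3)
    · rw [h0] at F
      exact ⟨h0, F⟩
  obtain ⟨hc4p', hab⟩ := key4 hp hp3 hpd Fp' h4dp
  have hpb := hnb hp hp3 Fp' hab
  -- the value at `p * q`
  have htotpq : 4 ∣ (p * q).totient := by
    rw [Nat.totient_mul hcop, Nat.totient_prime hp, Nat.totient_prime hq, show (4 : ℕ) = 2 * 2 by norm_num]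
    exact Nat.mul_dvd_mul (tot2 p hp hp3) (tot2 q hq hq3)
  have Fpq := F_pq (G := G) hp hq hpq hdpq
  have Fpq' : p ∣ 1 + c G p + c G q + c G (p * q) := (dvd_mul_right p q).trans Fpq
  rw [hcp] at Fpq'
  have hcq : c G q = 0 ∨ c G q = a ∨ c G q = b := hv q hq3
  have hcq0 : c G q ≠ 0 := c_prime hq hqd
  rcases hcq with h | hcq | hcq
  · exact hcq0 h
  · -- both are `a`
    have Fq := F_p (G := G) hq hqd
    rw [hcq] at Fq
    have Fq' : q ∣ a + 1 := by rwa [add_comm] at Fq
    obtain ⟨hc4q', -⟩ := key4 hq hq3 hqd Fq' h4dq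
    -- the order `4pq`
    have F := frob4 (G := G) (p * q) hdpq (h2d _ h4dpq) h4dpq _ (hD4_pq hp hq hp3 hq3)
    have hne1 : 4 ≠ 4 * p := by omega
    have hne2 : 4 ≠ 4 * q := by omega
    have hne3 : 4 * p ≠ 4 * q := by omega
    have hm1 : p * q ≥ 2 * q := Nat.mul_le_mul_right q (by omega)
    have hm2 : p * q ≥ p * 2 := Nat.mul_le_mul_left p (by omega)
    have hm3 : p * q ≥ 3 * 3 := Nat.mul_le_mul hp3 hq3
    rw [Finset.sum_insert (by
        simp only [Finset.mem_insert, Finset.mem_singleton]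
        omega),
      Finset.sum_insert (by
        simp only [Finset.mem_insert, Finset.mem_singleton]
        omega),
      Finset.sum_pair (by omega), ha, hc4p', hc4q'] at F
    have F' : p ∣ a + (b + (b + c G (4 * (p * q)))) := (dvd_mul_right p q).trans F
    have htot : 4 ∣ (4 * (p * q)).totient := by
      rw [Nat.totient_mul hc4pq, show Nat.totient 4 = 2 by decide]
      exact htotpq.trans (dvd_mul_left _ _)
    rcases hb0 _ htot with h0 | h0
    · rw [h0, add_zero, ← add_assoc] at F'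
      exact hpb ((Nat.dvd_add_right hab).mp F')
    · rw [h0, ← add_assoc] at F'
      have := (Nat.dvd_add_right hab).mp F'
      exact hpb (odd_not_dvd_of_two hp3 hp this)
  · -- `c q = b`
    rw [hcq] at Fpq'
    have h1 : p ∣ (1 + a) + (b + c G (p * q)) := by
      rwa [show 1 + a + b + c G (p * q) = (1 + a) + (b + c G (p * q)) by ring] at Fpq'
    have h2 : p ∣ b + c G (p * q) := (Nat.dvd_add_right (by rwa [add_comm] at Fp')).mp h1
    rcases hb0 _ htotpq with h0 | h0
    · rw [h0, add_zero] at h2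
      exact hpb h2
    · rw [h0] at h2
      exact hpb (odd_not_dvd_of_two hp3 hp h2)

/-- **Main arithmetic**: three values, even order, not (unique involution and `2 ∥ |G|`): no two odd
primes divide `|G|`. -/
theorem no_two_odd_primes (h3 : Three G) (h2 : 2 ∣ Nat.card G) (hnot : ¬ (c G 2 = 1 ∧ ¬ 4 ∣ Nat.card G))
    {p q : ℕ} (hp : p.Prime) (hq : q.Prime) (hp3 : 3 ≤ p) (hq3 : 3 ≤ q) (hpq : p ≠ q)
    (hpd : p ∣ Nat.card G) (hqd : q ∣ Nat.card G) : False := by
  have hcop : Nat.Coprime p q := (Nat.coprime_primes hp hq).mpr hpq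
  have hdpq : p * q ∣ Nat.card G := hcop.mul_dvd_of_dvd_of_dvd hpd hqd
  have hm1 : p * q ≥ 3 * 3 := Nat.mul_le_mul hp3 hq3
  have hcp0 := c_prime hp hpd
  have hcq0 := c_prime hq hqd
  have Fp := F_p (G := G) hp hpd
  have Fq := F_p (G := G) hq hqd
  have Fpq := F_pq (G := G) hp hq hpq hdpq
  have Fpq' : p ∣ 1 + c G p + c G q + c G (p * q) := (dvd_mul_right p q).trans Fpq
  -- same-value contradiction
  have same : ∀ n, c G p = n → c G q = n → (c G (p * q) = 0 ∨ c G (p * q) = n) → False := by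
    intro n h1 h2 h3
    rw [h1] at Fp
    rw [h1, h2] at Fpq'
    have Fp' : p ∣ n + 1 := by rwa [add_comm] at Fp
    rcases h3 with h3 | h3
    · rw [h3] at Fpq'
      exact odd_not_dvd_one hp3 (aux1 Fp' (by rwa [show 1 + 2 * n = 1 + n + n + 0 by ring]))
    · rw [h3] at Fpq'
      exact odd_not_dvd_two hp3 (aux2 Fp' (by rwa [show 1 + 3 * n = 1 + n + n + n by ring]))
  by_cases hc2 : c G 2 = 1
  · -- unique involution
    have h4 : 4 ∣ Nat.card G := by
      by_contra h4
      exact hnot ⟨hc2, h4⟩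
    have F4 := frob 4 h4 _ (hD_4 (G := G))
    rw [Finset.sum_insert (by simp), Finset.sum_pair (by norm_num), c_one, hc2] at F4
    have h4' : 4 ∣ 2 + c G 4 := by rwa [show 2 + c G 4 = 1 + (1 + c G 4) by ring]
    have hne0 : c G 4 ≠ 0 := by
      intro h
      rw [h] at h4'
      omega
    obtain ⟨b, -, -, hb⟩ := exists_vals h3 (m₀ := 4) rfl hne0 (c_ne_one (by norm_num))
    have hv : ∀ m, 3 ≤ m → c G m = 0 ∨ c G m = c G 4 ∨ c G m = b := by
      intro m hm
      rcases hb m with h | h | h | h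
      · exact Or.inl h
      · exact absurd h (c_ne_one hm)
      · exact Or.inr (Or.inl h)
      · exact Or.inr (Or.inr h)
    have hb0 : ∀ m, 4 ∣ m.totient → c G m = 0 ∨ c G m = b := by
      intro m hm
      have h1 : 4 ∣ c G m := hm.trans (totient_dvd_c m)
      rcases hb m with h | h | h | h
      · exact Or.inl h
      · rw [h] at h1; omega
      · exfalso
        rw [h] at h1
        omega
      · exact Or.inr h
    by_cases hcpa : c G p = c G 4
    · exact core4 rfl h4' hb0 hv hp hq hp3 hq3 hpq h4 hpd hqd hcpa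
    by_cases hcqa : c G q = c G 4
    · exact core4 rfl h4' hb0 hv hq hp hq3 hp3 hpq.symm h4 hqd hpd hcqa
    have hcpb : c G p = b := by
      rcases hv p hp3 with h | h | h
      · exact absurd h hcp0
      · exact absurd h hcpa
      · exact h
    have hcqb : c G q = b := by
      rcases hv q hq3 with h | h | h
      · exact absurd h hcq0
      · exact absurd h hcqa
      · exact h
    have htotpq : 4 ∣ (p * q).totient := by
      have tot2 : ∀ r : ℕ, r.Prime → 3 ≤ r → 2 ∣ r - 1 := by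
        intro r hr hr3
        rcases hr.eq_two_or_odd' with h | h
        · omega
        · obtain ⟨k, hk⟩ := h
          exact ⟨k, by omega⟩
      rw [Nat.totient_mul hcop, Nat.totient_prime hp, Nat.totient_prime hq, show (4 : ℕ) = 2 * 2 by norm_num]
      exact Nat.mul_dvd_mul (tot2 p hp hp3) (tot2 q hq hq3)
    exact same b hcpb hcqb (hb0 _ htotpq)
  · -- many involutions
    have h20 : c G 2 ≠ 0 := c_prime Nat.prime_two h2
    obtain ⟨b, -, -, hb⟩ := exists_vals h3 (m₀ := 2) rfl h20 hc2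
    have F2 := F_p (G := G) Nat.prime_two h2
    have hv : ∀ m, 3 ≤ m → c G m = 0 ∨ c G m = b := by
      intro m hm
      have hev := c_even (G := G) hm
      rcases hb m with h | h | h | h
      · exact Or.inl h
      · exact absurd h (c_ne_one hm)
      · exfalso
        rw [h] at hev
        omega
      · exact Or.inr h
    have hcpb : c G p = b := (hv p hp3).resolve_left hcp0
    have hcqb : c G q = b := (hv q hq3).resolve_left hcq0
    exact same b hcpb hcqb (hv _ (by omega))

/-- card with prime factors in `{2, r}` -/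
lemma card_two_primes {n r : ℕ} (hn : n ≠ 0) (hr : r.Prime) (hr2 : r ≠ 2)
    (h : ∀ s, s.Prime → s ∣ n → s = 2 ∨ s = r) : n = 2 ^ (n.factorization 2) * r ^ (n.factorization r) := by
  classical
  have h1 := Nat.prod_factorization_pow_eq_self hn
  have hsub : n.factorization.support ⊆ ({2, r} : Finset ℕ) := by
    intro s hs
    rw [Nat.support_factorization] at hs
    have hs' := Nat.mem_primeFactors.mp hs
    simpa using h s hs'.1 hs'.2.1
  rw [Finsupp.prod_of_support_subset _ hsub _ (by simp), Finset.prod_pair (Ne.symm hr2)] at h1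
  exact h1.symm

/-- the conclusion for a group in which at most one odd prime divides the order -/
theorem solvable_of_no_two_odd
    (H : ∀ p q : ℕ, p.Prime → q.Prime → 3 ≤ p → 3 ≤ q → p ≠ q → p ∣ Nat.card G → q ∣ Nat.card G → False) :
    Group.IsSolvable G := by
  have hn : Nat.card G ≠ 0 := Nat.card_pos.ne'
  by_cases hex : ∃ r : ℕ, r.Prime ∧ 3 ≤ r ∧ r ∣ Nat.card G
  · obtain ⟨r, hr, hr3, hrd⟩ := hex
    have := card_two_primes hn hr (by omega) (fun s hs hsd => by
      by_cases hs2 : s = 2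
      · exact Or.inl hs2
      · right
        by_contra hsr
        have hs3 : 3 ≤ s := by
          have := hs.two_le
          omega
        exact H s r hs hr hs3 hr3 hsr hsd hrd)
    exact Cfsg.Agent.S0144.result _ _ _ _ Nat.prime_two hr this
  · have h2 : ∀ s : ℕ, s.Prime → s ∣ Nat.card G → s = 2 := by
      intro s hs hsd
      by_contra hs2
      have hs3 : 3 ≤ s := by
        have := hs.two_le
        omega
      exact hex ⟨s, hs, hs3, hsd⟩
    have h3 := Nat.eq_prime_pow_of_unique_prime_dvd hn (fun {d} hd hdn => h2 d hd hdn)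
    refine Cfsg.Agent.S0144.result 2 3 (Nat.card G).primeFactorsList.length 0 Nat.prime_two Nat.prime_three ?_
    rw [pow_zero, mul_one]
    exact h3

/-- unique involution and `2 ∥ |G|`: reduction to the odd order theorem -/
theorem solvable_of_unique_inv {G : Type u} [Group G] [Finite G]
    (hFT : ∀ (K : Type u) [Group K] [Finite K], Odd (Nat.card K) → Group.IsSolvable K)
    (hc2 : c G 2 = 1) (h2 : 2 ∣ Nat.card G) (h4 : ¬ 4 ∣ Nat.card G) : Group.IsSolvable G := by
  haveI : Fact (Nat.Prime 2) := ⟨Nat.prime_two⟩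
  obtain ⟨z, hz⟩ := exists_prime_orderOf_dvd_card' (G := G) 2 h2
  have hcentral : ∀ g : G, g * z * g⁻¹ = z := by
    intro g
    refine eq_of_c_one hc2 ?_ hz
    rw [← hz]
    exact orderOf_eq_of_pow_and_pow_div_prime (orderOf_pos z) (by
        rw [conj_pow, pow_orderOf_eq_one]; simp) (by
        intro p hp hpd
        rw [conj_pow, Ne, conj_eq_one_iff]
        exact pow_ne_one_of_lt_orderOf (Nat.div_pos (Nat.le_of_dvd (orderOf_pos z) hpd) hp.pos).ne'
          (Nat.div_lt_self (orderOf_pos z) hp.one_lt))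
  let N : Subgroup G := Subgroup.zpowers z
  haveI hN : N.Normal := by
    constructor
    intro n hn g
    obtain ⟨k, rfl⟩ := Subgroup.mem_zpowers_iff.mp hn
    rw [← conj_zpow, hcentral]
    exact Subgroup.zpow_mem_zpowers z k
  have hcardN : Nat.card N = 2 := by
    rw [Nat.card_zpowers, hz]
  have hcardQ : Odd (Nat.card (G ⧸ N)) := by
    have h5 := Subgroup.card_eq_card_quotient_mul_card_subgroup N
    rw [hcardN] at h5
    rw [Nat.odd_iff]
    by_contra hne
    have hev : 2 ∣ Nat.card (G ⧸ N) := by omega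
    apply h4
    rw [h5]
    exact Nat.mul_dvd_mul hev dvd_rfl
  have hS : Group.IsSolvable (G ⧸ N) := hFT (G ⧸ N) hcardQ
  haveI : IsMulCommutative N := ⟨⟨fun a b => Subtype.ext (by
    obtain ⟨x, hx⟩ := Subgroup.mem_zpowers_iff.mp a.2
    obtain ⟨y, hy⟩ := Subgroup.mem_zpowers_iff.mp b.2
    simp only [Subgroup.coe_mul, ← hx, ← hy, ← zpow_add, add_comm])⟩⟩
  exact Group.isSolvable_of_ker_le_range N.subtype (QuotientGroup.mk' N) (by
    rw [QuotientGroup.ker_mk', Subgroup.range_subtype])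

end

end Cfsg.Agent.Lib.SameOrder
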